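import Mathlib

/-! Five commuting involutions in dimension six permuted by `A₅`. -/

set_option autoImplicit false
set_option linter.unusedSimpArgs false
set_option linter.unusedSectionVars false
set_option linter.unusedVariables false

namespace Cfsg.Agent.H4.C11

open Matrix

variable {F : Type*} [Field F]

/-- sign -/
def sgn (F : Type*) [Field F] (b : Bool) : F := if b then -1 else 1

/-- weight vectors -/
def Wt (r : Fin 5 → Matrix (Fin 6) (Fin 6) F) (ε : Fin 5 → Bool) (v : Fin 6 → F) : Prop :=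
  ∀ k, r k *ᵥ v = sgn F (ε k) • v

variable {r : Fin 5 → Matrix (Fin 6) (Fin 6) F}

theorem Wt.map {ε : Fin 5 → Bool} {v : Fin 6 → F} (h : Wt r ε v) {X : Matrix (Fin 6) (Fin 6) F}
    {π : Fin 5 → Fin 5} (hX : ∀ k, X * r (π k) = r k * X) : Wt r (ε ∘ π) (X *ᵥ v) := fun k => by
  rw [mulVec_mulVec, ← hX, ← mulVec_mulVec, h, mulVec_smul]; rfl

theorem Wt.smul {ε : Fin 5 → Bool} {v : Fin 6 → F} (h : Wt r ε v) (c : F) : Wt r ε (c • v) :=
  fun k => by rw [mulVec_smul, h, smul_comm]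

theorem wt_sep {ι : Type} [Fintype ι] {ε : ι → Fin 5 → Bool} {v : ι → Fin 6 → F}
    (h : ∀ i, Wt r (ε i) (v i)) (h0 : ∑ i, v i = 0) (a : Fin 5) (c : F) :
    ∑ i, (sgn F (ε i a) + c) • v i = 0 := by
  have : r a *ᵥ ∑ i, v i + c • ∑ i, v i = 0 := by rw [h0, mulVec_zero, smul_zero, add_zero]
  rw [mulVec_sum, Finset.smul_sum, ← Finset.sum_add_distrib] at this
  rw [← this]
  exact Finset.sum_congr rfl fun i _ => by rw [h i a, add_smul]

theorem gl_ne {X : GL (Fin 6) F} {v : Fin 6 → F} (h : v ≠ 0) : X.1 *ᵥ v ≠ 0 := fun e => h (by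
  rw [← one_mulVec v, ← X.inv_mul, ← mulVec_mulVec, e, mulVec_zero])

theorem no_ten {v : Fin 5 × Fin 2 → Fin 6 → F}
    (h : ∀ c : Fin 5 × Fin 2 → F, ∑ i, c i • v i = 0 → ∀ i, c i = 0) : False := by
  have := (Fintype.linearIndependent_iff.2 h).fintype_card_le_finrank
  simp at this

theorem beta_core (h2 : (2 : F) ≠ 0) (sq : ∀ k, r k * r k = 1) (cm : ∀ i j, r i * r j = r j * r i)
    (pr : r 0 * r 1 * r 2 * r 3 * r 4 = 1) (G f z : GL (Fin 6) F)
    (hG : ∀ k, G.1 * r (k + 4) = r k * G.1)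
    (hf : ∀ k, f.1 * r (![0, 2, 1, 4, 3] k) = r k * f.1)
    (hz : ∀ k, z.1 * r (![0, 4, 3, 2, 1] k) = r k * z.1)
    (fz : f.1 * z.1 = -(z.1 * f.1)) : r 0 = 1 := by
  by_contra hne
  have s1 : ∀ S : Finset (Fin 5), ∃ v ≠ 0, r 0 *ᵥ v = -v ∧ ∀ k ∈ S, r k *ᵥ v = v ∨ r k *ᵥ v = -v := by
    intro S
    induction S using Finset.induction_on with
    | empty =>
      obtain ⟨x, hx⟩ : ∃ x, (1 - r 0) *ᵥ x ≠ 0 := by
        by_contra! e
        exact hne (sub_eq_zero.1 (ext_iff_mulVec.2 fun x => by rw [e, zero_mulVec])).symm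
      refine ⟨_, hx, ?_, by simp⟩
      rw [mulVec_mulVec, mul_sub, sq, mul_one, ← neg_mulVec, neg_sub]
    | insert a S _ ih =>
      obtain ⟨v, v0, v1, v2⟩ := ih
      by_cases e : (1 + r a) *ᵥ v = 0
      · refine ⟨v, v0, v1, fun k hk => ?_⟩
        rcases Finset.mem_insert.1 hk with rfl | hk
        · right; rw [add_mulVec, one_mulVec] at e; exact eq_neg_of_add_eq_zero_right e
        · exact v2 k hk
      · have c : ∀ k, r k *ᵥ ((1 + r a) *ᵥ v) = (1 + r a) *ᵥ (r k *ᵥ v) := fun k => by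
          rw [mulVec_mulVec, mulVec_mulVec, mul_add, add_mul, mul_one, one_mul, cm]
        refine ⟨_, e, by rw [c, v1, mulVec_neg], fun k hk => ?_⟩
        rcases Finset.mem_insert.1 hk with rfl | hk
        · left; rw [mulVec_mulVec, mul_add, sq, mul_one, add_comm]
        · rw [c]; exact (v2 k hk).imp (fun q => by rw [q]) fun q => by rw [q, mulVec_neg]
  obtain ⟨v, v0, v1, v2⟩ := s1 Finset.univ
  obtain ⟨ε, hε, ε0⟩ : ∃ ε, Wt r ε v ∧ ε 0 = true := by
    classical
    refine ⟨fun k => decide (r k *ᵥ v = -v), fun k => ?_, by simp [v1]⟩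
    by_cases e : r k *ᵥ v = -v
    · simp [e, sgn]
    · simp [e, sgn, (v2 k (Finset.mem_univ k)).resolve_right e]
  have par : sgn F (ε 0) * sgn F (ε 1) * sgn F (ε 2) * sgn F (ε 3) * sgn F (ε 4) = 1 := by
    have := congrArg (· *ᵥ v) pr
    simp only [← mulVec_mulVec, hε _, mulVec_smul, smul_smul, one_mulVec] at this
    have k := smul_left_injective F v0 (this.trans (one_smul F v).symm)
    linear_combination k
  have tG : ∀ ε, (∃ v ≠ 0, Wt r ε v) → ∀ n : ℕ, ∃ v ≠ 0, Wt r (ε ∘ (· + 4)^[n]) v := by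
    rintro ε ⟨v, v0, hv⟩ n
    induction n with
    | zero => exact ⟨v, v0, hv⟩
    | succ n ih =>
      obtain ⟨w, w0, hw⟩ := ih
      exact ⟨_, gl_ne w0, hw.map hG⟩
  have tf : ∀ ε, (∃ v ≠ 0, Wt r ε v) → ∃ v ≠ 0, Wt r (ε ∘ ![0, 2, 1, 4, 3]) v := by
    rintro ε ⟨v, v0, hv⟩
    exact ⟨_, gl_ne v0, hv.map hf⟩
  rcases (by decide +kernel : ∀ ε : Fin 5 → Bool, ε 0 = true →
      (ε 0 ^^ ε 1 ^^ ε 2 ^^ ε 3 ^^ ε 4) = true ∨
      (∃ a : Fin 5, ε ∘ (· + 4)^[a] = fun k => decide (k ≠ 0)) ∨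
      ∀ i : Fin 5 × Fin 2, ∃ a b : Fin 5,
        ε ∘ (· + 4)^[a] = (fun k => decide (k = i.1 ∨ k = i.1 + 1 + i.2.castLE (by norm_num))) ∨
        ((ε ∘ (· + 4)^[a]) ∘ ![0, 2, 1, 4, 3]) ∘ (· + 4)^[b] =
          fun k => decide (k = i.1 ∨ k = i.1 + 1 + i.2.castLE (by norm_num))) ε ε0 with e | ⟨a, e⟩ | e
  · apply h2
    revert par e
    cases ε 0 <;> cases ε 1 <;> cases ε 2 <;> cases ε 3 <;> cases ε 4 <;> simp [sgn] <;>
      intro e <;> linear_combination -e
  · obtain ⟨v, v0, hv⟩ := tG ε ⟨v, v0, hε⟩ a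
    rw [e] at hv
    obtain ⟨w, hw, w0⟩ : ∃ w, Wt r (fun k => decide (k ≠ 0)) w ∧ ∀ a : F, w ≠ a • v := by
      by_contra! q
      obtain ⟨a, ha⟩ := q _ (by convert hv.map hf using 1; decide)
      obtain ⟨b, hb⟩ := q _ (by convert hv.map hz using 1; decide)
      have := congrArg (· *ᵥ v) fz
      simp only [neg_mulVec, ← mulVec_mulVec, ha, hb, mulVec_smul, smul_smul] at this
      have k : (2 * (a * b)) • v = 0 := by
        rw [two_mul, add_smul]; nth_rewrite 1 [mul_comm, this]; exact neg_add_cancel _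
      rcases mul_eq_zero.1 ((mul_eq_zero.1 ((smul_eq_zero.1 k).resolve_right v0)).resolve_left h2)
        with e | e
      · exact gl_ne (X := f) v0 (by rw [ha, e, zero_smul])
      · exact gl_ne (X := z) v0 (by rw [hb, e, zero_smul])
    have hGn : ∀ (n : ℕ) k, (G ^ n).1 * r ((· + 4)^[n] k) = r k * (G ^ n).1 := fun n => by
      induction n with
      | zero => simp
      | succ n ih =>
        intro k
        rw [pow_succ', Units.val_mul, mul_assoc, Function.iterate_succ_apply, ih, ← mul_assoc, hG,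
          mul_assoc]
    refine no_ten (v := fun i => (G ^ i.1.1).1 *ᵥ (![v, w] i.2)) fun c hc i => ?_
    have k1 := wt_sep (r := r) (ε := fun i : Fin 5 × Fin 2 => fun k => decide (k ≠ i.1)) (fun i => by
      refine Wt.smul ?_ _
      have : Wt r (fun k => decide (k ≠ 0)) (![v, w] i.2) := by
        obtain ⟨j, t⟩ := i
        fin_cases t
        exacts [hv, hw]
      convert this.map (hGn i.1.1) using 1
      clear * -; revert i; decide) hc i.1 1
    obtain ⟨j, t⟩ := i
    rw [Fintype.sum_prod_type, Finset.sum_eq_single j (fun b _ hb => by simp [sgn, hb.symm])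
      (by simp), Fin.sum_univ_two] at k1
    simp only [ne_eq, not_true_eq_false, decide_false, sgn, Bool.false_eq_true, if_false, cons_val_zero,
      cons_val_one, one_add_one_eq_two, ← smul_add, ← mulVec_smul, ← mulVec_add] at k1
    have k2 : c (j, 0) • v + c (j, 1) • w = 0 := by
      by_contra q
      exact gl_ne (smul_ne_zero h2 q) k1
    have k3 : c (j, 1) = 0 := by
      by_contra q
      refine w0 (-c (j, 0) / c (j, 1)) (smul_right_injective _ q ?_)
      simp only [smul_smul, mul_div_cancel₀ _ q, neg_smul]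
      exact eq_neg_of_add_eq_zero_right k2
    rw [k3, zero_smul, add_zero] at k2
    fin_cases t
    exacts [(smul_eq_zero.1 k2).resolve_right v0, k3]
  · have : ∀ i : Fin 5 × Fin 2, ∃ v ≠ 0,
        Wt r (fun k => decide (k = i.1 ∨ k = i.1 + 1 + i.2.castLE (by norm_num))) v := fun i => by
      obtain ⟨a, b, q | q⟩ := e i <;> rw [← q]
      exacts [tG ε ⟨v, v0, hε⟩ a, tG _ (tf _ (tG ε ⟨v, v0, hε⟩ a)) b]
    choose x x0 hx using this
    refine no_ten (v := x) fun c hc i => ?_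
    have k1 := wt_sep (fun i => ((hx i).smul _).smul _)
      (wt_sep (fun i => (hx i).smul _) hc i.1 (-1)) (i.1 + 1 + i.2.castLE (by norm_num)) (-1)
    rw [Finset.sum_eq_single i (fun b _ hb => by
      rcases (by decide : ∀ b i : Fin 5 × Fin 2, b ≠ i →
        ¬ (i.1 = b.1 ∨ i.1 = b.1 + 1 + b.2.castLE (by norm_num)) ∨
        ¬ (i.1 + 1 + i.2.castLE (by norm_num) = b.1 ∨
          i.1 + 1 + i.2.castLE (by norm_num) = b.1 + 1 + b.2.castLE (by norm_num))) b i hb with q | q <;>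
      simp only [q, decide_false, sgn, Bool.false_eq_true, if_false, add_neg_cancel, zero_smul,
        smul_zero]) (by simp)] at k1
    simp only [true_or, or_true, decide_true, sgn, if_true, smul_eq_zero, x0, or_false] at k1
    have : (-1 + -1 : F) ≠ 0 := fun q => h2 (by linear_combination -q)
    tauto

end Cfsg.Agent.H4.C11
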