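import Cfsg.Agent.H4.C11.B0

/-! The reflection case, abstract form. -/

set_option autoImplicit false
set_option linter.unusedSimpArgs false
set_option linter.unusedSectionVars false
set_option linter.unusedVariables false

namespace Cfsg.Agent.H4.C11

open Matrix

variable {F : Type*} [Field F]

theorem beta_mid {C : Type*} [Group C] (π : C →* GL (Fin 5) F) (ψ : C →* GL (Fin 6) F)
    (h2 : (2 : F) ≠ 0) {σ : C} (cen : ∀ g, g * σ = σ * g) (σ2 : σ * σ = 1) (πσ : π σ = 1)
    (ψσ : (ψ σ).1 = -1) (kerU : ∀ c, π c = 1 → c = 1 ∨ c = σ) (scU : ∀ c, (π c).1 ≠ -1)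
    (kerV : ∀ c (a : F), (ψ c).1 = a • 1 → ∃ b : F, (π c).1 = b • 1) {g f z : C}
    (fz : f * z = σ * z * f) (e : Fin 5 → Matrix (Fin 5) (Fin 5) F)
    (hG : ∀ k, (π g).1 * e (k + 4) = e k * (π g).1)
    (hf : ∀ k, (π f).1 * e (![0, 2, 1, 4, 3] k) = e k * (π f).1)
    (hz : ∀ k, (π z).1 * e (![0, 4, 3, 2, 1] k) = e k * (π z).1)
    (orth : ∀ i j, i ≠ j → e i * e j = 0) (sm : e 0 + e 1 + e 2 + e 3 + e 4 = (2 : F) • 1)
    {ρ : C} (ρ2 : ρ * ρ = 1 ∨ ρ * ρ = σ) {s : F} (hs : s = 1 ∨ s = -1)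
    (hρ : (π ρ).1 = s • (1 - e 0)) (htr : (ψ ρ).1.trace ≠ 0) : False := by
  have σ1 : σ ≠ 1 := fun q => by
    rw [q, map_one] at ψσ
    have := congrFun (congrFun ψσ 0) 0
    simp at this
    exact h2 (by linear_combination this)
  have main : ∀ ρ : C, (ρ * ρ = 1 ∨ ρ * ρ = σ) → (π ρ).1 = s • (1 - e 0) → (ψ ρ).1.trace ≠ 0 →
      ∃ R : Fin 5 → C, R 0 = ρ ∧ (∀ k, IsConj ρ (R k)) ∧
        (R 0 * R 1 * R 2 * R 3 * R 4 = 1 → False) ∧
        (R 0 * R 1 * R 2 * R 3 * R 4 = 1 ∨ R 0 * R 1 * R 2 * R 3 * R 4 = σ) ∧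
        ∀ k, R k = g ^ k.1 * ρ * (g ^ k.1)⁻¹ := by
    intro ρ ρ2 hρ htr
    have t1 : ∀ a b, IsConj ρ a → IsConj ρ b → π a = π b → a = b := fun a b ha hb q => by
      have tr : ∀ a, IsConj ρ a → (ψ a).1.trace = (ψ ρ).1.trace := fun a ha => by
        obtain ⟨c, rfl⟩ := isConj_iff.1 ha
        rw [map_mul, map_mul, map_inv, Units.val_mul, Units.val_mul, trace_units_conj]
      rcases kerU (a * b⁻¹) (by rw [map_mul, map_inv, q, mul_inv_cancel]) with k | k
      · exact mul_inv_eq_one.1 k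
      · exfalso
        have := tr a ha
        rw [mul_inv_eq_iff_eq_mul.1 k, map_mul, Units.val_mul, ψσ, neg_mul, one_mul, trace_neg,
          tr b hb] at this
        exact mul_ne_zero h2 htr (by linear_combination -this)
    let R : Fin 5 → C := fun k => g ^ k.1 * ρ * (g ^ k.1)⁻¹
    have cj : ∀ k, IsConj ρ (R k) := fun k => isConj_iff.2 ⟨_, rfl⟩
    have tp : ∀ (x a : C) (i k : Fin 5), (π x).1 * e i = e k * (π x).1 → (π a).1 = s • (1 - e i) →
        (π (x * a * x⁻¹)).1 = s • (1 - e k) := fun x a i k q ha => by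
      rw [map_mul, map_mul, map_inv, Units.val_mul, Units.val_mul, ha, Matrix.mul_smul, mul_sub, q,
        Matrix.smul_mul, sub_mul, mul_one, mul_assoc, Units.mul_inv, mul_one]
    have st : ∀ (n : ℕ), g ^ (n + 1) * ρ * (g ^ (n + 1))⁻¹ = g * (g ^ n * ρ * (g ^ n)⁻¹) * g⁻¹ :=
      fun n => by rw [pow_succ']; group
    have p0 : (π (R 0)).1 = s • (1 - e 0) := by simpa [R] using hρ
    have p1 : (π (R 1)).1 = s • (1 - e 1) := (congrArg (fun x => (π x).1) (st 0)).trans (tp g _ 0 1 (hG 1) p0)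
    have p2 : (π (R 2)).1 = s • (1 - e 2) := (congrArg (fun x => (π x).1) (st 1)).trans (tp g _ 1 2 (hG 2) p1)
    have p3 : (π (R 3)).1 = s • (1 - e 3) := (congrArg (fun x => (π x).1) (st 2)).trans (tp g _ 2 3 (hG 3) p2)
    have p4 : (π (R 4)).1 = s • (1 - e 4) := (congrArg (fun x => (π x).1) (st 3)).trans (tp g _ 3 4 (hG 4) p3)
    have pk : ∀ k, (π (R k)).1 = s • (1 - e k) := fun k => by
      fin_cases k
      exacts [p0, p1, p2, p3, p4]
    have act : ∀ (x : C) (i k : Fin 5), (π x).1 * e i = e k * (π x).1 → x * R i = R k * x :=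
      fun x i k q => mul_inv_eq_iff_eq_mul.1 (t1 _ _ ((cj i).trans (isConj_iff.2 ⟨x, rfl⟩)) (cj k)
        (Units.ext ((tp x _ i k q (pk i)).trans (pk k).symm)))
    have cm : ∀ i j, R i * R j = R j * R i := fun i j => by
      by_cases q : i = j
      · rw [q]
      refine act _ j j ?_
      rw [pk, Matrix.smul_mul, Matrix.mul_smul, sub_mul, mul_sub, orth i j q, orth j i (Ne.symm q),
        one_mul, mul_one]
    have pp : (π (R 0 * R 1 * R 2 * R 3 * R 4)).1 = -(s • 1) := by
      simp only [map_mul, Units.val_mul, pk, Matrix.smul_mul, Matrix.mul_smul, smul_smul]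
      have k1 : (1 - e 0) * (1 - e 1) * (1 - e 2) * (1 - e 3) * (1 - e 4) =
          1 - (e 0 + e 1 + e 2 + e 3 + e 4) := by
        have o := orth
        simp only [mul_sub, sub_mul, one_mul, mul_one, o 0 1 (by decide), o 0 2 (by decide),
          o 0 3 (by decide), o 0 4 (by decide), o 1 2 (by decide), o 1 3 (by decide),
          o 1 4 (by decide), o 2 3 (by decide), o 2 4 (by decide), o 3 4 (by decide), sub_zero]
        abel
      rw [k1, sm, two_smul]
      rcases hs with rfl | rfl <;> simp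
    have s1 : s = -1 := hs.resolve_left fun q => scU _ (by rw [pp, q, one_smul])
    have pr := kerU (R 0 * R 1 * R 2 * R 3 * R 4) (Units.ext (by rw [pp, s1]; simp))
    refine ⟨R, by simp [R], cj, fun pr1 => ?_, pr, fun k => rfl⟩
    have sqR : ∀ k, R k * R k = ρ * ρ := fun k => by
      simp only [R, conj_mul]
      rcases ρ2 with q | q <;> rw [q]
      · simp
      · rw [cen, mul_inv_cancel_right]
    have ρ1 : ρ * ρ = 1 := ρ2.resolve_right fun q => σ1 (by
      have c : ∀ i j, Commute (R i) (R j) := cm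
      have k1 : (R 0 * R 1 * R 2 * R 3 * R 4) ^ 2 = 1 := by rw [pr1, one_pow]
      rw [Commute.mul_pow (((((c 0 4).mul_left (c 1 4)).mul_left (c 2 4))).mul_left (c 3 4)),
        Commute.mul_pow (((c 0 3).mul_left (c 1 3)).mul_left (c 2 3)),
        Commute.mul_pow ((c 0 2).mul_left (c 1 2)), Commute.mul_pow (c 0 1)] at k1
      simp only [sq, sqR, q, σ2, one_mul] at k1
      exact k1)
    have vm : ∀ {a b c d : C}, a * b = c * d → (ψ a).1 * (ψ b).1 = (ψ c).1 * (ψ d).1 := fun q => by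
      rw [← Units.val_mul, ← map_mul, q, map_mul, Units.val_mul]
    have k1 := beta_core (r := fun k => (ψ (R k)).1) h2
      (fun k => by rw [← Units.val_mul, ← map_mul, sqR, ρ1, map_one, Units.val_one])
      (fun i j => vm (cm i j))
      (by simp only [← Units.val_mul, ← map_mul]; rw [pr1, map_one, Units.val_one])
      (ψ g) (ψ f) (ψ z) (fun k => vm (act g _ _ (hG k))) (fun k => vm (act f _ _ (hf k)))
      (fun k => vm (act z _ _ (hz k)))
      (by rw [vm fz, map_mul, Units.val_mul, ψσ, neg_mul, one_mul, neg_mul])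
    obtain ⟨b, hb⟩ := kerV (R 0) 1 (by rw [one_smul]; exact k1)
    have k2 : ∀ k, e k = (1 + b) • 1 := by
      have q : ∀ k, (π (R k)).1 = b • 1 := fun k => by
        obtain ⟨c, hc⟩ := isConj_iff.1 ((cj 0).symm.trans (cj k))
        rw [← hc, map_mul, map_mul, map_inv, Units.val_mul, Units.val_mul, hb, Matrix.mul_smul, mul_one,
          Matrix.smul_mul, Units.mul_inv]
      intro k
      have := (pk k).symm.trans (q k)
      rw [s1, neg_smul, one_smul, neg_sub, sub_eq_iff_eq_add] at this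
      rw [this, add_smul, one_smul, add_comm]
    have k3 := congrFun (congrFun (orth 0 1 (by decide)) 0) 0
    have k4 := congrFun (congrFun sm 0) 0
    simp only [k2] at k3 k4
    simp at k3 k4
    rw [k3] at k4
    exact h2 (by linear_combination -k4)
  obtain ⟨R, r0, -, n1, pr, hR⟩ := main ρ ρ2 hρ htr
  obtain ⟨R', r0', -, n1', -, hR'⟩ := main (ρ * σ) (by
      rw [mul_assoc, ← mul_assoc σ, ← cen, mul_assoc, σ2, mul_one]; exact ρ2)
    (by rw [map_mul, πσ, mul_one, hρ])
    (by rw [map_mul, Units.val_mul, ψσ, mul_neg, mul_one, trace_neg]; exact neg_ne_zero.2 htr)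
  have q : ∀ k, R' k = σ * R k := fun k => by
    rw [hR, hR', ← mul_assoc, mul_assoc _ σ, ← cen, ← mul_assoc, cen]
  refine n1' ?_
  have c : ∀ a b : C, a * (σ * b) = σ * (a * b) := fun a b => by rw [← mul_assoc, cen, mul_assoc]
  have c2 : ∀ b : C, σ * (σ * b) = b := fun b => by rw [← mul_assoc, σ2, one_mul]
  have := pr.resolve_left n1
  simp only [q, mul_assoc, c, c2] at this ⊢
  rw [this, σ2]

end Cfsg.Agent.H4.C11
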