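import Cfsg.Agent.H5.C11.T

/-! The Frattini step: an element of determinant `-1` on `U` inverts the five-cycle of lines. -/

set_option autoImplicit false
set_option linter.unusedSimpArgs false
set_option linter.unusedSectionVars false
set_option linter.unusedVariables false

namespace Cfsg.Agent.H4.C11

open Matrix Equiv
open Cfsg.Agent.H5.C11 (FH)

variable {F : Type*} [Field F] {n : Type} [Fintype n] [DecidableEq n]

/-- `X` is monomial with permutation `π` -/
def Mo (X : GL n F) (π : Perm n) : Prop :=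
  ∀ d : n → F, X.1 * diagonal (d ∘ π) = diagonal d * X.1

theorem Mo.one : Mo (1 : GL n F) 1 := fun d => by simp

theorem Mo.mul {X Y : GL n F} {π ρ : Perm n} (h : Mo X π) (k : Mo Y ρ) : Mo (X * Y) (π * ρ) :=
  fun d => by
    rw [Units.val_mul, Perm.coe_mul, ← Function.comp_assoc, mul_assoc, k, ← mul_assoc, h, mul_assoc]

theorem Mo.inv {X : GL n F} {π : Perm n} (h : Mo X π) : Mo X⁻¹ π⁻¹ := fun d => by
  have := h (d ∘ ⇑π⁻¹)
  rw [Function.comp_assoc, ← Perm.coe_mul, inv_mul_cancel, Perm.coe_one, Function.comp_id] at this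
  rw [Units.inv_mul_eq_iff_eq_mul, ← mul_assoc, this, mul_assoc, Units.mul_inv, mul_one]

theorem Mo.pow {X : GL n F} {π : Perm n} (h : Mo X π) (m : ℕ) : Mo (X ^ m) (π ^ m) := by
  induction m with
  | zero => simpa using Mo.one
  | succ m ih => rw [pow_succ, pow_succ]; exact ih.mul h

theorem Mo.eq_one {π : Perm n} (h : Mo (1 : GL n F) π) : π = 1 := by
  ext j
  have := congrFun (congrFun (h (Pi.single j 1)) j) j
  simp only [Units.val_one, one_mul, mul_one, diagonal_apply_eq, Function.comp,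
    Pi.single_eq_same] at this
  by_contra e
  rw [Pi.single_eq_of_ne (by simpa using e)] at this
  exact zero_ne_one this

theorem Mo.of_supp {X : GL n F} {π : Perm n} (h : ∀ i j, X.1 i j ≠ 0 → i = π j) : Mo X π := fun d => by
  ext i j
  rw [mul_diagonal, diagonal_mul, mul_comm]
  by_cases e : X.1 i j = 0
  · rw [e, mul_zero, mul_zero]
  · rw [h i j e]; rfl

theorem diag_of_comm {e : n → F} (he : Function.Injective e) {Y : Matrix n n F}
    (h : Y * diagonal e = diagonal e * Y) : Y = diagonal fun i => Y i i := by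
  ext i j
  by_cases k : i = j
  · rw [k, diagonal_apply_eq]
  rw [diagonal_apply_ne _ k]
  have := congrFun (congrFun h i) j
  rw [mul_diagonal, diagonal_mul, mul_comm] at this
  exact by_contra fun z => k (he (mul_right_cancel₀ z this)).symm

theorem exists_Mo {e : n → F} (he : Function.Injective e) {X U : GL n F} (hU : U.1 = diagonal e)
    (h : X * U * X⁻¹ * U = U * (X * U * X⁻¹)) : ∃ π, Mo X π := by
  have h1 := diag_of_comm he (Y := (X * U * X⁻¹).1) (by rw [← hU, ← Units.val_mul, h, Units.val_mul])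
  set d := fun i => (X * U * X⁻¹).1 i i
  have h2 : X.1 * diagonal e = diagonal d * X.1 := by
    rw [← h1, ← hU, ← Units.val_mul, ← Units.val_mul, inv_mul_cancel_right]
  have h3 : ∀ i j j', X.1 i j ≠ 0 → X.1 i j' ≠ 0 → j = j' := fun i j j' a b => by
    have k1 := congrFun (congrFun h2 i) j
    have k2 := congrFun (congrFun h2 i) j'
    rw [mul_diagonal, diagonal_mul, mul_comm] at k1 k2
    exact he ((mul_right_cancel₀ a k1).trans (mul_right_cancel₀ b k2).symm)
  have h4 : ∀ j, ∃ i, X.1 i j ≠ 0 := fun j => by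
    by_contra! z
    exact X.det_ne_zero (det_eq_zero_of_column_eq_zero j z)
  choose f hf using h4
  have inj : Function.Injective f := fun j j' z => h3 _ _ _ (hf j) (z ▸ hf j')
  have bij := Finite.injective_iff_bijective.1 inj
  refine ⟨Equiv.ofBijective f bij, Mo.of_supp fun i j a => ?_⟩
  obtain ⟨j', rfl⟩ := bij.2 i
  rw [h3 _ _ _ a (hf j')]; rfl

theorem Mo.comm {X : GL n F} {π : Perm n} (h : Mo X π) (hn : Fintype.card n < 11) {k : ℕ}
    (hk : X ^ 11 ^ k = 1) (d : n → F) : X.1 * diagonal d = diagonal d * X.1 := by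
  have h1 : π ^ 11 ^ k = 1 := Mo.eq_one (F := F) (hk ▸ h.pow _)
  have h2 : π ^ (Fintype.card n).factorial = 1 := by rw [← Fintype.card_perm, pow_card_eq_one]
  have h3 := pow_gcd_eq_one.2 ⟨h1, h2⟩
  rw [show Nat.gcd (11 ^ k) (Fintype.card n).factorial = 1 from Nat.Coprime.pow_left _
    ((Nat.Prime.coprime_iff_not_dvd (by norm_num)).2 fun z => by
      rw [Nat.Prime.dvd_factorial (by norm_num)] at z; omega), pow_one] at h3
  subst h3
  simpa using h d

/-- the five-cycle -/
def c5 : Perm (Fin 5) := Equiv.addRight 1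

theorem s5_dec : ∀ t : Perm (Fin 5), t * t = 1 → t ≠ 1 → ∃ b : Fin 5,
    ∃ w ∈ [t, t * c5 * t * c5 ^ 4 * t, t * c5 ^ 2 * t * c5 ^ 3 * t, t * c5 * t * c5 * t * c5 ^ 3 * t,
      t * c5 * t * c5 ^ 2 * t * c5 ^ 2 * t], w * c5 ^ b.1 = Equiv.neg (Fin 5) := by
  decide +kernel

theorem s5_neg (H : Subgroup (Perm (Fin 5))) (hc : c5 ∈ H) {π : Perm (Fin 5)} (hπ : π ∈ H)
    (ev : Even (orderOf π)) : Equiv.neg (Fin 5) ∈ H := by
  obtain ⟨m, hm⟩ := ev
  have hp := orderOf_pos π
  have ht := pow_mem hπ m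
  obtain ⟨b, w, hw, e⟩ := s5_dec (π ^ m) (by rw [← pow_add, ← hm, pow_orderOf_eq_one])
    (pow_ne_one_of_lt_orderOf (by omega) (by omega))
  rw [← e]
  refine mul_mem ?_ (pow_mem hc _)
  generalize π ^ m = t at *
  simp only [List.mem_cons, List.not_mem_nil, or_false] at hw
  rcases hw with rfl | rfl | rfl | rfl | rfl <;>
    repeat first | exact ht | exact hc | exact pow_mem hc _ | refine mul_mem ?_ ?_

theorem f1 {C : Type*} [Group C] [Finite C] (ru : C →* GL (Fin 5) F) (rv : C →* GL (Fin 6) F)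
    {p : ℕ} {ω : F} (hF : FH p ω) (inj : ∀ g, ru g = 1 → rv g = 1 → g = 1) (u δ σ s : C)
    (hu : (ru u).1 = diagonal fun i => ω ^ (![1, 9, 4, 3, 5] : Fin 5 → ℕ) i)
    (hv : (rv u).1 = diagonal fun i => ω ^ (![0, 1, 9, 4, 3, 5] : Fin 6 → ℕ) i)
    (hδ : ∀ i j, (ru δ).1 i j = if j + 1 = i then 1 else 0)
    (cen : ∀ g, g * σ = σ * g) (σ2 : σ * σ = 1) (hσ : ru σ = 1)
    (kU : ∀ g (c : F), (ru g).1 = c • 1 → c ^ 11 = 1) (kU1 : ∀ g, ru g = 1 → g = 1 ∨ g = σ)
    (uq : ∀ s : C, s * s = 1 → (ru s).1.det = 1 → s = 1 ∨ s = σ) (hs : (ru s).1.det = -1) :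
    ∃ u', u' * u = u * u' ∧ u' ^ 11 = 1 ∧
      (ru u').1 = diagonal fun i => ω ^ (![1, 5, 3, 4, 9] : Fin 5 → ℕ) i := by
  set e5 : Fin 5 → F := fun i => ω ^ (![1, 9, 4, 3, 5] : Fin 5 → ℕ) i with he5
  set e6 : Fin 6 → F := fun i => ω ^ (![0, 1, 9, 4, 3, 5] : Fin 6 → ℕ) i with he6
  have i5 : Function.Injective e5 := fun i j e => by_contra fun z =>
    hF.om_ne (by clear * - z; revert i j; decide) e
  have i6 : Function.Injective e6 := fun i j e => by_contra fun z =>
    hF.om_ne (by clear * - z; revert i j; decide) e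
  have u11 : u ^ 11 = 1 := inj _ (Units.ext (by
      rw [map_pow, Units.val_pow_eq_pow_val, hu, diagonal_pow, Units.val_one, ← diagonal_one]
      congr 1; funext i; simp only [he5, Pi.pow_apply]; rw [← pow_mul, mul_comm, pow_mul, hF.w, one_pow]))
    (Units.ext (by
      rw [map_pow, Units.val_pow_eq_pow_val, hv, diagonal_pow, Units.val_one, ← diagonal_one]
      congr 1; funext i; simp only [he6, Pi.pow_apply]; rw [← pow_mul, mul_comm, pow_mul, hF.w, one_pow]))
  have cA : ∀ g, (ru g).1 * diagonal e5 = diagonal e5 * (ru g).1 → g * u = u * g := fun g e => by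
    rcases kU1 (g * u * g⁻¹ * u⁻¹) (by
      rw [map_mul, map_mul, map_mul, map_inv, map_inv, mul_inv_eq_one, mul_inv_eq_iff_eq_mul]
      exact Units.ext (by rw [Units.val_mul, Units.val_mul, hu, e])) with k | k
    · rwa [mul_inv_eq_one, mul_inv_eq_iff_eq_mul] at k
    · rw [mul_inv_eq_iff_eq_mul] at k
      have k1 : (σ * u) ^ 11 = 1 := by rw [← k, conj_pow, u11, mul_one, mul_inv_cancel]
      rw [Commute.mul_pow (cen u).symm, u11, mul_one, show 11 = 2 * 5 + 1 from rfl, pow_succ, pow_mul,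
        sq, σ2, one_pow, one_mul] at k1
      rwa [k1, one_mul, mul_inv_eq_iff_eq_mul] at k
  have dU : ∀ g, g * u = u * g → (ru g).1 = diagonal fun i => (ru g).1 i i := fun g e =>
    diag_of_comm i5 (by rw [← hu, ← Units.val_mul, ← map_mul, e, map_mul, Units.val_mul])
  have dV : ∀ g, g * u = u * g → (rv g).1 = diagonal fun i => (rv g).1 i i := fun g e =>
    diag_of_comm i6 (by rw [← hv, ← Units.val_mul, ← map_mul, e, map_mul, Units.val_mul])
  have ab : ∀ g k, g * u = u * g → k * u = u * k → g * k = k * g := fun g k eg ek => by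
    rw [← mul_inv_eq_one, _root_.mul_inv_rev, ← mul_assoc]
    apply inj
    · rw [map_mul, map_mul, map_mul, map_inv, map_inv, mul_inv_eq_one, mul_inv_eq_iff_eq_mul]
      apply Units.ext
      rw [Units.val_mul, Units.val_mul, dU g eg, dU k ek, diagonal_mul_diagonal, diagonal_mul_diagonal]
      simp only [mul_comm]
    · rw [map_mul, map_mul, map_mul, map_inv, map_inv, mul_inv_eq_one, mul_inv_eq_iff_eq_mul]
      apply Units.ext
      rw [Units.val_mul, Units.val_mul, dV g eg, dV k ek, diagonal_mul_diagonal, diagonal_mul_diagonal]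
      simp only [mul_comm]
  have Mδ : Mo (ru δ) c5 := Mo.of_supp fun i j e => by
    rw [hδ] at e; exact (by_contra fun z => e (if_neg z) : j + 1 = i).symm
  -- two-elements of the centraliser
  have two : ∀ (k : ℕ) (a : C), a * u = u * a → a ^ 2 ^ k = 1 → ru a = 1 := fun k => by
    induction k with
    | zero => intro a _ e; rw [pow_zero, pow_one] at e; rw [e, map_one]
    | succ k ih =>
      intro a ea e
      have a2 := ih (a ^ 2) (Commute.pow_left ea 2) (by rw [← pow_mul, ← pow_succ', e])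
      have cδ : δ * (a * a) * δ⁻¹ = a * a := by
        rw [← sq]
        rcases kU1 _ a2 with z | z <;> rw [z]
        · simp
        · rw [cen, mul_inv_cancel_right]
      obtain ⟨d, hd⟩ : ∃ d, (ru a).1 = diagonal d := ⟨_, dU a ea⟩
      have e1 : (ru (δ * a * δ⁻¹)).1 = diagonal (d ∘ ⇑c5⁻¹) := by
        have := Mδ (d ∘ ⇑c5⁻¹)
        rw [Function.comp_assoc, ← Perm.coe_mul, inv_mul_cancel, Perm.coe_one, Function.comp_id] at this
        rw [map_mul, map_mul, Units.val_mul, Units.val_mul, hd, this, map_inv, mul_assoc, Units.mul_inv,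
          mul_one]
      have e2 : δ * a * δ⁻¹ * u = u * (δ * a * δ⁻¹) := cA _ (by
        rw [e1, diagonal_mul_diagonal, diagonal_mul_diagonal]; simp only [mul_comm])
      have e3 : Commute a (δ * a * δ⁻¹) := ab _ _ ea e2
      have e4 : ru (a * (δ * a * δ⁻¹)⁻¹) = 1 := by
        rcases uq (a * (δ * a * δ⁻¹)⁻¹) (by
          rw [← sq, e3.inv_right.mul_pow, inv_pow, conj_pow, sq, cδ, mul_inv_cancel]) (by
          rw [← GeneralLinearGroup.val_det_apply]
          simp only [map_mul, map_inv, mul_inv_cancel_comm, mul_inv_cancel, Units.val_one]) with z | z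
        · rw [z, map_one]
        · rw [z, hσ]
      rw [map_mul, map_inv, mul_inv_eq_one] at e4
      have e5' : d = d ∘ ⇑c5⁻¹ := diagonal_injective (by rw [← hd, ← e1, e4])
      have e6' : ∀ i, d i = d 0 := by
        have q : ∀ i, d (i + 1) = d i := fun i => by
          have := congrFun e5' (i + 1)
          simpa [c5] using this
        intro i
        fin_cases i
        exacts [rfl, q 0, (q 1).trans (q 0), (q 2).trans ((q 1).trans (q 0)),
          (q 3).trans ((q 2).trans ((q 1).trans (q 0)))]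
      have e7 : (ru a).1 = d 0 • 1 := by
        rw [hd, smul_one_eq_diagonal]; exact congrArg diagonal (funext e6')
      have e8 : d 0 ^ 2 = 1 := by
        have z : (ru (a * a)).1 0 0 = (1 : GL (Fin 5) F).1 0 0 := by rw [← sq, a2]
        rw [map_mul, Units.val_mul, hd, diagonal_mul_diagonal] at z
        rw [sq]; simpa using z
      have e9 := pow_gcd_eq_one.2 ⟨e8, kU a _ e7⟩
      exact Units.ext (by rw [e7, show d 0 = 1 by simpa using e9, one_smul, Units.val_one])
  haveI : Fact (Nat.Prime 11) := ⟨by norm_num⟩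
  obtain ⟨P, hP⟩ := (show IsPGroup 11 (Subgroup.zpowers u) from by
    rintro ⟨_, z, rfl⟩
    refine ⟨1, Subtype.ext ?_⟩
    show (u ^ z) ^ 11 ^ 1 = 1
    rw [pow_one, ← zpow_natCast, ← _root_.zpow_mul, mul_comm, _root_.zpow_mul, zpow_natCast, u11,
      _root_.one_zpow]).exists_le_sylow
  have uP : u ∈ (P : Subgroup C) := hP (Subgroup.mem_zpowers u)
  have mo : ∀ x, x * u * x⁻¹ * u = u * (x * u * x⁻¹) → ∃ π, Mo (ru x) π := fun x e =>
    exists_Mo i5 hu (by rw [← map_inv, ← map_mul, ← map_mul, ← map_mul, e, map_mul])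
  have PA : ∀ x ∈ (P : Subgroup C), x * u = u * x := by
    by_contra! z
    obtain ⟨x0, x0P, z⟩ := z
    haveI := P.isPGroup'.isNilpotent
    let D : Subgroup P := (Subgroup.centralizer {u}).subgroupOf P
    have mD : ∀ y : P, y ∈ D ↔ y.1 * u = u * y.1 := fun y =>
      Subgroup.mem_subgroupOf.trans Subgroup.mem_centralizer_singleton_iff
    obtain ⟨x, x1, x2⟩ := SetLike.exists_of_lt (normalizerCondition_of_isNilpotent D
      (lt_top_iff_ne_top.2 fun e => z ((mD ⟨x0, x0P⟩).1 (e ▸ Subgroup.mem_top _))))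
    have k1 := (mD _).1 ((Subgroup.mem_normalizer_iff.1 x1 ⟨u, uP⟩).1 ((mD _).2 rfl))
    obtain ⟨π, hπ⟩ := mo x.1 k1
    obtain ⟨k, hk⟩ := P.isPGroup' x
    exact x2 ((mD _).2 (cA _ (hπ.comm (by simp) (k := k) (by
      rw [← map_pow, ← Subgroup.coe_pow, hk, Subgroup.coe_one, map_one]) _)))
  obtain ⟨a, m, hm, ec⟩ := Nat.exists_eq_two_pow_mul_odd (Nat.card_pos (α := C)).ne'
  let ψ : C →* Fˣ := (powMonoidHom m).comp (GeneralLinearGroup.det.comp ru)
  have ψv : ∀ g, ψ g = GeneralLinearGroup.det (ru (g ^ m)) := fun g => by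
    rw [map_pow, map_pow]; rfl
  have Pψ : (P : Subgroup C) ≤ ψ.ker := fun x hx => by
    obtain ⟨k, hk⟩ := P.isPGroup' ⟨x, hx⟩
    have k1 : orderOf x ∣ 11 ^ k := orderOf_dvd_of_pow_eq_one (congrArg Subtype.val hk)
    have k2 : orderOf x ∣ m := Nat.Coprime.dvd_of_dvd_mul_left
      (Nat.Coprime.coprime_dvd_left k1 (Nat.Coprime.pow k a (by norm_num))) (ec ▸ orderOf_dvd_natCard x)
    rw [MonoidHom.mem_ker, ψv, orderOf_dvd_iff_pow_eq_one.1 k2, map_one, map_one]
  obtain ⟨x, xN, xψ⟩ : ∃ x ∈ Subgroup.normalizer (P : Set C), ψ x ≠ 1 := by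
    by_contra! z
    have k1 : s ∈ ψ.ker := (sup_le (fun x hx => z x hx) le_rfl :
      Subgroup.normalizer (P : Set C) ⊔ ψ.ker ≤ ψ.ker)
      ((Sylow.normalizer_sup_eq_top' P Pψ) ▸ Subgroup.mem_top s)
    have k2 := congrArg Units.val (MonoidHom.mem_ker.1 k1)
    rw [ψv, map_pow, map_pow, Units.val_pow_eq_pow_val, GeneralLinearGroup.val_det_apply, hs,
      hm.neg_one_pow, Units.val_one] at k2
    exact hF.two (by linear_combination -k2)
  obtain ⟨π, hπ⟩ := mo x (PA _ ((Subgroup.mem_normalizer_iff.1 xN u).1 uP))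
  let H : Subgroup (Perm (Fin 5)) :=
    { carrier := {ρ | ∃ y, Mo (ru y) ρ}
      one_mem' := ⟨1, by rw [map_one]; exact Mo.one⟩
      mul_mem' := by
        rintro _ _ ⟨y, hy⟩ ⟨z, hz⟩; exact ⟨y * z, by rw [map_mul]; exact hy.mul hz⟩
      inv_mem' := by
        rintro _ ⟨y, hy⟩; exact ⟨y⁻¹, by rw [map_inv]; exact hy.inv⟩ }
  obtain ⟨y, hy⟩ := s5_neg H ⟨δ, Mδ⟩ ⟨x, hπ⟩ (by
    by_contra z
    have k1 := hπ.pow (orderOf π)
    rw [pow_orderOf_eq_one, ← map_pow] at k1
    have k2 : x ^ orderOf π * u = u * x ^ orderOf π := cA _ (by simpa using k1 e5)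
    have k3 := two a ((x ^ orderOf π) ^ m) (Commute.pow_left k2 m) (by
      rw [← pow_mul, mul_comm m, ← ec, pow_card_eq_one'])
    have k4 : ψ x ^ orderOf π = 1 := by rw [← map_pow, ψv, k3, map_one]
    have k5 : ψ x ^ 2 ^ a = 1 := by
      rw [← map_pow, ψv, ← pow_mul, ← ec, pow_card_eq_one', map_one, map_one]
    have k6 := pow_gcd_eq_one.2 ⟨k5, k4⟩
    rw [show Nat.gcd (2 ^ a) (orderOf π) = 1 from Nat.Coprime.pow_left _
      ((Nat.coprime_two_left).2 (Nat.not_even_iff_odd.1 z)), pow_one] at k6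
    exact xψ k6)
  have e1 : (ru (y * u * y⁻¹)).1 = diagonal fun i => ω ^ (![1, 5, 3, 4, 9] : Fin 5 → ℕ) i := by
    have := hy fun i => ω ^ (![1, 5, 3, 4, 9] : Fin 5 → ℕ) i
    rw [show (fun i => ω ^ (![1, 5, 3, 4, 9] : Fin 5 → ℕ) i) ∘ ⇑(Equiv.neg (Fin 5)) = e5 from
      funext fun i => by fin_cases i <;> rfl] at this
    rw [map_mul, map_mul, Units.val_mul, Units.val_mul, hu, this, map_inv, mul_assoc, Units.mul_inv,
      mul_one]
  exact ⟨y * u * y⁻¹, cA _ (by
    rw [e1, diagonal_mul_diagonal, diagonal_mul_diagonal]; simp only [mul_comm]),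
    by rw [conj_pow, u11, mul_one, mul_inv_cancel], e1⟩

end Cfsg.Agent.H4.C11
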