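import Cfsg.Agent.H5.C11.T

/-! Two homologies of order eleven on a plane generate a group of even order. -/

set_option autoImplicit false
set_option linter.unusedSimpArgs false
set_option linter.unusedSectionVars false
set_option linter.unusedVariables false

namespace Cfsg.Agent.H4.C11

open Matrix OnePoint Cfsg.Agent.H5.T3 Cfsg.Agent.H5.C5 Cfsg.Agent.H8 Cfsg.Agent.H7
open Cfsg.Agent.H5.C11 (FH)
open scoped MatrixGroups

local notation "pk" => Matrix.ProjGenLinGroup.mk

variable {F : Type*} [Field F]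

theorem f2_nofix {K : Type*} [Field K] [Algebra F K] {ω x : F} (w1 : ω ≠ 1) (x0 : x ≠ 0)
    (x1 : x * x ≠ 1) {a b : GL (Fin 2) F} (ha : a.1 = !![ω, (ω - 1) * x; 0, 1])
    (hb : b.1 = !![1, 0; (ω - 1) * x, ω]) (z : OnePoint K) (e1 : pk a • z = z)
    (e2 : pk b • z = z) : False := by
  have w1' : ω - 1 ≠ 0 := sub_ne_zero.2 w1
  cases z with
  | infty =>
    rw [smul_infty_eq_infty, hb] at e2
    exact mul_ne_zero w1' x0 (by simpa using e2)
  | coe w =>
    rw [smul_coe_eq_coe] at e1 e2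
    simp only [ha, hb, of_apply, cons_val', cons_val_zero, cons_val_one, cons_val_fin_one, map_zero,
      add_zero, zero_mul, zero_add, map_one, map_mul, map_sub, mul_one, one_mul] at e1 e2
    have k1 : algebraMap F K ω - 1 ≠ 0 := by
      rw [← map_one (algebraMap F K), ← map_sub]; exact (map_ne_zero _).2 w1'
    have k2 : algebraMap F K x ≠ 0 := (map_ne_zero _).2 x0
    have k3 : algebraMap F K x * algebraMap F K x - 1 ≠ 0 := by
      rw [← map_one (algebraMap F K), ← map_mul, ← map_sub]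
      exact (map_ne_zero _).2 (sub_ne_zero.2 x1)
    have : w = -algebraMap F K x := by
      apply mul_left_cancel₀ k1; linear_combination e1
    subst this
    exact mul_ne_zero (mul_ne_zero k1 k2) k3 (by linear_combination -e2)

theorem f2_plane {p : ℕ} {ω x : F} (h : FH p ω) (x0 : x ≠ 0) (x1 : x * x ≠ 1)
    {X : Subgroup PGL(2, F)} (odd : ∀ y ∈ X, y * y = 1 → y = 1)
    {a b : GL (Fin 2) F} (ha : a.1 = !![ω, (ω - 1) * x; 0, 1])
    (hb : b.1 = !![1, 0; (ω - 1) * x, ω]) (a11 : a ^ 11 = 1) (b11 : b ^ 11 = 1)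
    (aX : pk a ∈ X) (bX : pk b ∈ X) : False := by
  haveI := h.char
  haveI := h.finF
  haveI : Fact p.Prime := ⟨h.prime⟩
  have pair : ∀ {K : Type _} [Field K] [Algebra F K] (z y : OnePoint K),
      X ≤ pairStab F z y → False := by
    intro K _ _ z y hH
    have key : ∀ c : GL (Fin 2) F, c ^ 11 = 1 → pk c ∈ X → pk c • z = z := fun c c11 cX => by
      have h1 : pk c * pk c ∈ MulAction.stabilizer PGL(2, F) z := by
        rw [MulAction.mem_stabilizer_iff, mul_smul]
        rcases hH cX with ⟨e1, e2⟩ | ⟨e1, e2⟩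
        · rw [e1, e1]
        · rw [e1, e2]
      have h2 := pow_mem h1 6
      rwa [← sq, ← pow_mul, ← map_pow, show 2 * 6 = 11 + 1 from rfl, pow_succ, c11, one_mul] at h2
    exact f2_nofix h.w1 x0 x1 ha hb z (key a a11 aX) (key b b11 bX)
  rcases H3.dickson2 p X with ⟨z, hx⟩ | ⟨z, y, -, hx⟩ | ⟨t, a', b', -, hx⟩ | hx | ⟨k, g, -, hx⟩
  · exact f2_nofix h.w1 x0 x1 ha hb z (hx aX) (hx bX)
  · exact pair z y hx
  · exact pair _ _ hx
  · have k1 := hx.1 _ aX
    haveI : Fact (Nat.Prime 11) := ⟨by norm_num⟩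
    rw [orderOf_eq_prime (p := 11) (by rw [← map_pow, a11, map_one]) (by
      rw [Ne, mk_eq_one_iff, ha]
      exact fun e => h.w1 (by simpa using e.2.2))] at k1
    omega
  · let J : GL (Fin 2) F := mat 0 1 (-1) 0 (by simp)
    have J1 : pk J ∈ PS k := mem_PS.2 ⟨J, rfl, fun i j => by
      fin_cases i <;> fin_cases j <;> simp [J, mat], 1, one_mem _, by simp [J, mat]⟩
    have J2 : g * pk J * g⁻¹ ∈ X := by
      rcases hx with hx | hx <;> rw [hx, mem_cj] <;> simp only [mul_assoc, inv_mul_cancel_left,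
        inv_mul_cancel, mul_one]
      exacts [J1, PS_le_PG _ J1]
    have J3 : pk J * pk J = 1 := by
      rw [← map_mul, mk_eq_one_iff]; simp [J, mat, mul_apply, Fin.sum_univ_two]
    have J4 := odd _ J2 (by rw [conj_mul, J3]; simp)
    rw [conj_eq_one_iff, mk_eq_one_iff] at J4
    simpa [J, mat] using J4.1

/-- the last step: the homologies generate a group without involutions, impossible -/
theorem f2 {C : Type*} [Group C] [Finite C] (ru : C →* GL (Fin 5) F) (rv : C →* GL (Fin 6) F)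
    {p : ℕ} {ω : F} (hF : FH p ω) (σ : C) (hσ : (rv σ).1 = -1)
    (uq : ∀ s : C, s * s = 1 → (ru s).1.det = 1 → s = 1 ∨ s = σ) (h : Fin 5 → C)
    (hu : ∀ k, (ru (h k)).1 = diagonal (Pi.mulSingle k ω))
    (hv : ∀ k, ∃ d, (rv (h k)).1 = diagonal d ∧ ∀ i, i ≠ 0 → i ≠ k.succ → d i = 1)
    (f : C) (f2 : (ru f).1 * (ru f).1 = 1) (fT : (ru f).1ᵀ = (ru f).1)
    (f0 : ∀ i j, (ru f).1 i j ≠ 0) : False := by
  set Φ := (ru f).1 with hΦ
  have sy : ∀ i j, Φ i j = Φ j i := fun i j => (congrFun (congrFun fT j) i)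
  obtain ⟨k, hk⟩ : ∃ k, Φ 0 k * Φ 0 k ≠ 1 := by
    by_contra! e
    have := congrFun (congrFun f2 0) 0
    rw [mul_apply, Finset.sum_congr rfl fun j _ => by rw [sy j 0, e]] at this
    simp at this
    exact mul_ne_zero hF.two hF.two (by linear_combination this)
  set x := Φ 0 k with hx
  have x1 : 1 - x * x ≠ 0 := sub_ne_zero.2 hk.symm
  let A : Matrix (Fin 5) (Fin 2) F := of fun i => ![(1 : Matrix (Fin 5) (Fin 5) F) i 0, Φ i k]
  let Γ' : Matrix (Fin 2) (Fin 2) F := (1 - x * x)⁻¹ • !![1, -x; -x, 1]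
  have kk : ∑ i, Φ i k * Φ i k = 1 := by
    have := congrFun (congrFun f2 k) k
    rw [mul_apply, one_apply_eq] at this
    rw [← this]; exact Finset.sum_congr rfl fun i _ => by rw [sy i k]
  have hΓ : Aᵀ * A = !![1, x; x, 1] := by
    ext i j; fin_cases i <;> fin_cases j <;> simp [A, mul_apply, one_apply, kk, hx]
  have g1 : Γ' * (Aᵀ * A) = 1 := by
    rw [hΓ]; ext i j
    fin_cases i <;> fin_cases j <;> simp [Γ', mul_apply, Fin.sum_univ_two] <;>
      first | ring1 | linear_combination mul_inv_cancel₀ x1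
  have g2 : Aᵀ * A * Γ' = 1 := mul_eq_one_comm.1 g1
  have BA : Γ' * Aᵀ * A = 1 := by rw [Matrix.mul_assoc, g1]
  have cm : ∀ (g : GL (Fin 5) F) (N : Matrix (Fin 2) (Fin 2) F), g.1 = 1 + A * N * Aᵀ →
      g ∈ Cm (A * (Γ' * Aᵀ)) ∧ Γ' * Aᵀ * g.1 * A = 1 + N * (Aᵀ * A) := fun g N e => by
    constructor
    · rw [mem_Cm, e, Matrix.add_mul, Matrix.mul_add, Matrix.one_mul, Matrix.mul_one]
      congr 1
      calc A * N * Aᵀ * (A * (Γ' * Aᵀ)) = A * N * (Aᵀ * A * Γ') * Aᵀ := by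
            simp only [Matrix.mul_assoc]
        _ = A * (Γ' * Aᵀ * A) * N * Aᵀ := by rw [g2, BA, Matrix.mul_one, Matrix.mul_one]
        _ = _ := by simp only [Matrix.mul_assoc]
    · rw [e, Matrix.mul_add, Matrix.add_mul, Matrix.mul_one, BA]
      congr 1
      calc Γ' * Aᵀ * (A * N * Aᵀ) * A = Γ' * Aᵀ * A * N * (Aᵀ * A) := by
            simp only [Matrix.mul_assoc]
        _ = _ := by rw [BA, Matrix.one_mul]
  have fi : (ru f⁻¹).1 = Φ := by
    rw [map_inv]; exact Units.inv_eq_of_mul_eq_one_right f2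
  have a1 := cm (ru (h 0)) !![ω - 1, 0; 0, 0] (by
    rw [hu]; ext i j
    fin_cases i <;> fin_cases j <;> simp [A, mul_apply, Fin.sum_univ_two, one_apply])
  have dk : diagonal (Pi.mulSingle k ω : Fin 5 → F) = 1 + diagonal (Pi.single k (ω - 1)) := by
    rw [← diagonal_one, diagonal_add]; congr 1; funext i
    by_cases e : i = k
    · subst e; simp
    · simp [e]
  have b1 := cm (ru (f * h k * f⁻¹)) !![0, 0; 0, ω - 1] (by
    rw [map_mul, map_mul, Units.val_mul, Units.val_mul, fi, hu, dk, Matrix.mul_add, Matrix.add_mul,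
      Matrix.mul_one, f2]
    congr 1; ext i j
    simp [A, mul_apply, Fin.sum_univ_two, diagonal_apply, Pi.single_apply, sy k j, ← hΦ])
  obtain ⟨d, d1, d2⟩ := hv 0
  obtain ⟨d', d1', d2'⟩ := hv k
  obtain ⟨v, hv0, v0⟩ : ∃ v ∈ LinearMap.ker (mulVecLin (of ![(1 : Matrix (Fin 6) (Fin 6) F) 0,
      (1 : Matrix (Fin 6) (Fin 6) F) 1, (rv f⁻¹).1 0, (rv f⁻¹).1 k.succ])), v ≠ 0 :=
    (Submodule.ne_bot_iff _).1 (LinearMap.ker_ne_bot_of_finrank_lt (by simp))
  have v1 : v 0 = 0 := by simpa [mulVec, dotProduct, one_apply] using congrFun hv0 0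
  have v2 : v 1 = 0 := by simpa [mulVec, dotProduct, one_apply] using congrFun hv0 1
  have v3 : ((rv f⁻¹).1 *ᵥ v) 0 = 0 := congrFun hv0 2
  have v4 : ((rv f⁻¹).1 *ᵥ v) k.succ = 0 := congrFun hv0 3
  have fixd : ∀ (d u : Fin 6 → F) (j : Fin 6), (∀ i, i ≠ 0 → i ≠ j → d i = 1) → u 0 = 0 → u j = 0 →
      diagonal d *ᵥ u = u := fun d u j hd u0 uj => by
    funext i
    rw [mulVec_diagonal]
    by_cases e0 : i = 0
    · rw [e0, u0, mul_zero]
    by_cases ej : i = j
    · rw [ej, uj, mul_zero]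
    rw [hd i e0 ej, one_mul]
  let G : Subgroup C :=
    { carrier := {g | ru g ∈ Cm (A * (Γ' * Aᵀ)) ∧ GeneralLinearGroup.det (ru g) ^ 11 = 1 ∧
        (rv g).1 *ᵥ v = v}
      one_mem' := by simp
      mul_mem' := by
        rintro a b ⟨s1, s2, s3⟩ ⟨t1, t2, t3⟩
        refine ⟨by rw [map_mul]; exact mul_mem s1 t1, by rw [map_mul, map_mul, mul_pow, s2, t2, one_mul], ?_⟩
        rw [map_mul, Units.val_mul, ← mulVec_mulVec, t3, s3]
      inv_mem' := by
        rintro a ⟨s1, s2, s3⟩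
        refine ⟨by rw [map_inv]; exact inv_mem s1, by rw [map_inv, map_inv, inv_pow, s2, inv_one], ?_⟩
        conv_lhs => rw [← s3]
        rw [mulVec_mulVec, ← Units.val_mul, ← map_mul, inv_mul_cancel, map_one, Units.val_one,
          one_mulVec] }
  have dh : ∀ j, GeneralLinearGroup.det (ru (h j)) ^ 11 = 1 := fun j => by
    apply Units.ext
    rw [Units.val_pow_eq_pow_val, GeneralLinearGroup.val_det_apply, hu, det_diagonal,
      Finset.prod_pi_mulSingle', if_pos (Finset.mem_univ _), hF.w, Units.val_one]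
  have aG : h 0 ∈ G := ⟨a1.1, dh 0, by rw [d1]; exact fixd d v 1 d2 v1 v2⟩
  have bG : f * h k * f⁻¹ ∈ G := ⟨b1.1, by
      simp only [map_mul, map_inv, mul_inv_cancel_comm]; exact dh k, by
    rw [map_mul, map_mul, Units.val_mul, Units.val_mul, ← mulVec_mulVec, ← mulVec_mulVec, d1',
      fixd d' _ _ d2' v3 v4, mulVec_mulVec, ← Units.val_mul, ← map_mul, mul_inv_cancel, map_one,
      Units.val_one, one_mulVec]⟩
  have noinv : ∀ s : G, s * s = 1 → s = 1 := fun s e => by
    obtain ⟨s, s1, s2, s3⟩ := s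
    have e' : s * s = 1 := congrArg Subtype.val e
    have q : GeneralLinearGroup.det (ru s) = 1 := by
      have : GeneralLinearGroup.det (ru s) ^ 2 = 1 := by rw [sq, ← map_mul, ← map_mul, e', map_one, map_one]
      have := pow_gcd_eq_one.2 ⟨this, s2⟩
      simpa using this
    rcases uq s e' (by rw [← GeneralLinearGroup.val_det_apply, q, Units.val_one]) with e1 | e1
    · exact Subtype.ext e1
    · exfalso
      rw [e1, hσ, neg_mulVec, one_mulVec] at s3
      refine v0 (funext fun i => mul_left_cancel₀ hF.two ?_)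
      have := congrFun s3 i
      simp only [Pi.neg_apply, Pi.zero_apply] at this ⊢
      linear_combination -this
  let φ : G →* GL (Fin 2) F :=
    (rs BA).comp ((ru.comp G.subtype).codRestrict (Cm (A * (Γ' * Aᵀ))) fun g => g.2.1)
  have φv : ∀ g : G, (φ g).1 = Γ' * Aᵀ * (ru g.1).1 * A := fun g => rfl
  have h11 : ∀ j, ru (h j) ^ 11 = 1 := fun j => by
    apply Units.ext
    rw [Units.val_pow_eq_pow_val, hu, diagonal_pow, ← Pi.mulSingle_pow, hF.w, Pi.mulSingle_one]
    exact diagonal_one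
  have φ11 : ∀ g : G, ru g.1 ^ 11 = 1 → φ g ^ 11 = 1 := fun g e => by
    rw [← map_pow]
    apply Units.ext
    rw [φv, Subgroup.coe_pow, map_pow, e, Units.val_one, Matrix.mul_one, BA, Units.val_one]
  refine f2_plane hF (f0 0 k) hk (X := ((pk).comp φ).range) ?_ (a := φ ⟨_, aG⟩) (b := φ ⟨_, bG⟩)
    ?_ ?_ (φ11 _ (h11 0)) (φ11 _ ?_) ⟨_, rfl⟩ ⟨_, rfl⟩
  · rintro _ ⟨g, rfl⟩ e
    obtain ⟨g', -, ⟨n, hn⟩, e'⟩ := exists_ppart Nat.prime_two ((pk).comp φ) g (by rw [sq, e])
    rw [← e']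
    have : ∀ (n : ℕ) (g : G), g ^ 2 ^ n = 1 → g = 1 := fun n => by
      induction n with
      | zero => intro g; simp
      | succ n ih => intro g e; exact ih g (noinv _ (by rw [← sq, ← pow_mul, ← pow_succ, e]))
    rw [this n g' hn, map_one]
  · rw [φv, a1.2, hΓ]; ext i j
    fin_cases i <;> fin_cases j <;> simp [mul_apply, Fin.sum_univ_two, hx]
  · rw [φv, b1.2, hΓ]; ext i j
    fin_cases i <;> fin_cases j <;> simp [mul_apply, Fin.sum_univ_two, hx]
  · show ru (f * h k * f⁻¹) ^ 11 = 1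
    rw [← map_pow, conj_pow, map_mul, map_mul, map_pow, h11, mul_one, ← map_mul, mul_inv_cancel,
      map_one]

end Cfsg.Agent.H4.C11
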