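import Cfsg.Agent.L.X0

/-! Two elements of order three in a subgroup of `SL₂` without `-1`. -/

set_option autoImplicit false
set_option linter.unusedSimpArgs false
set_option linter.unusedSectionVars false
set_option linter.unusedVariables false

namespace Cfsg.Agent.L.X11

open Matrix OnePoint Cfsg.Agent.H5.T3 Cfsg.Agent.H5.C5 Cfsg.Agent.H8 Cfsg.Agent.H7
open Cfsg.Agent.H5.C11 (FH)
open scoped MatrixGroups

local notation "pk" => Matrix.ProjGenLinGroup.mk

variable {F : Type*} [Field F]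

theorem odd_fix {p : ℕ} {ω : F} (h : FH p ω) {X : Subgroup PGL(2, F)}
    (odd : ∀ y ∈ X, y * y = 1 → y = 1) :
    ∃ z : OnePoint (AlgebraicClosure F), ∀ y ∈ X, y • z = z := by
  haveI := h.char
  haveI := h.finF
  haveI : Fact p.Prime := ⟨h.prime⟩
  have up : ∀ z : OnePoint F, (∀ y ∈ X, y • z = z) →
      ∃ z : OnePoint (AlgebraicClosure F), ∀ y ∈ X, y • z = z := fun z hz => by
    cases z with
    | infty =>
      refine ⟨∞, fun y hy => ?_⟩
      obtain ⟨a, rfl⟩ := ProjGenLinGroup.mk_surjective y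
      exact smul_infty_eq_infty.2 (smul_infty_eq_infty.1 (hz _ hy))
    | coe w =>
      refine ⟨(algebraMap F _ w : AlgebraicClosure F), fun y hy => ?_⟩
      obtain ⟨a, rfl⟩ := ProjGenLinGroup.mk_surjective y
      have := congrArg (algebraMap F (AlgebraicClosure F)) (smul_coe_eq_coe.1 (hz _ hy))
      rw [smul_coe_eq_coe]
      simpa using this
  have pair : ∀ {K : Type _} [Field K] [Algebra F K] (z y : OnePoint K),
      X ≤ pairStab F z y → ∀ c ∈ X, c • z = z := by
    intro K _ _ z y hH c cX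
    have h1 : c * c ∈ MulAction.stabilizer PGL(2, F) z := by
      rw [MulAction.mem_stabilizer_iff, mul_smul]
      rcases hH cX with ⟨e1, e2⟩ | ⟨e1, e2⟩
      · rw [e1, e1]
      · rw [e1, e2]
    have hp := orderOf_pos c
    rcases Nat.even_or_odd' (orderOf c) with ⟨m, e | e⟩
    · exact absurd (odd _ (pow_mem cX m) (by rw [← pow_add, ← two_mul, ← e, pow_orderOf_eq_one]))
        (pow_ne_one_of_lt_orderOf (by omega) (by omega))
    · have h2 := pow_mem h1 (m + 1)
      rwa [← sq, ← pow_mul, show 2 * (m + 1) = orderOf c + 1 by omega, pow_succ, pow_orderOf_eq_one,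
        one_mul] at h2
  rcases H3.dickson2 p X with ⟨z, hx⟩ | ⟨z, y, -, hx⟩ | ⟨t, a', b', -, hx⟩ | hx | ⟨k, g, -, hx⟩
  · exact up z fun y hy => hx hy
  · exact up z (pair z y hx)
  · exact ⟨_, pair _ _ hx⟩
  · exfalso
    haveI : Fact (Nat.Prime 2) := ⟨Nat.prime_two⟩
    obtain ⟨y, hy⟩ := exists_prime_orderOf_dvd_card' (G := X) 2 (by
      rcases hx.2.2 with k | k | k <;> rw [k.1] <;> norm_num)
    have k1 := odd y.1 y.2 (congrArg Subtype.val (show y * y = 1 by
      rw [← sq]; exact orderOf_dvd_iff_pow_eq_one.1 hy.dvd))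
    rw [show y = 1 from Subtype.ext k1, orderOf_one] at hy
    omega
  · exfalso
    let J : GL (Fin 2) F := mat 0 1 (-1) 0 (by simp)
    have J1 : pk J ∈ PS k := mem_PS.2 ⟨J, rfl, fun i j => by
      fin_cases i <;> fin_cases j <;> simp [J, mat], 1, one_mem _, by simp [J, mat]⟩
    have J2 : g * pk J * g⁻¹ ∈ X := by
      rcases hx with hx | hx <;> rw [hx, mem_cj] <;> simp only [mul_assoc, inv_mul_cancel_left,
        inv_mul_cancel, mul_one]
      exacts [J1, PS_le_PG _ J1]
    have J3 : pk J * pk J = 1 := by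
      rw [← map_mul, mk_eq_one_iff]; simp [J, mat, mul_apply, Fin.sum_univ_two]
    have J4 := odd _ J2 (by rw [conj_mul, J3]; simp)
    rw [conj_eq_one_iff, mk_eq_one_iff] at J4
    simpa [J, mat] using J4.1

/-- block matrix -/
def bl5 (β : Matrix (Fin 2) (Fin 2) F) : Matrix (Fin 5) (Fin 5) F :=
  !![1,0,0,0,0;0,1,0,0,0;0,0,1,0,0;0,0,0,β 0 0,β 0 1;0,0,0,β 1 0,β 1 1]

theorem bl5_mul (a b : Matrix (Fin 2) (Fin 2) F) : bl5 a * bl5 b = bl5 (a * b) := by
  ext i j; fin_cases i <;> fin_cases j <;> simp [bl5, mul_apply, Fin.sum_univ_succ]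

theorem bl5_one : bl5 (1 : Matrix (Fin 2) (Fin 2) F) = 1 := by
  ext i j; fin_cases i <;> fin_cases j <;> simp [bl5]

theorem gam_D {p : ℕ} {ω g : F} (h : FH p ω) (hg : g * g = -11) (G : Subgroup (GL (Fin 5) F))
    {X : GL (Fin 5) F} (hX : X ∈ G) (rX : Rp hg X 0 xZ) (β : Matrix (Fin 2) (Fin 2) F)
    (tr : β.trace = -1) (dt : β.det = 1) (hK : ∃ K ∈ G,
      K.1 = !![1,0,0,0,0;0,1,0,0,0;0,0,1,0,0;0,0,0,β 0 0,β 0 1;0,0,0,β 1 0,β 1 1]) :
    (∃ K ∈ G, Rp hg K 0 RZ) ∨ β 0 1 - β 1 0 - β 1 1 = 2 ∨ β 0 1 - β 1 0 - β 1 1 = -1 := by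
  haveI := h.finF
  refine or_iff_not_imp_left.2 fun n => ?_
  let Y : Subgroup (GL (Fin 2) F) :=
    { carrier := {b | b.1.det = 1 ∧ ∃ K ∈ G, K.1 = bl5 b.1}
      one_mem' := ⟨by simp, 1, one_mem _, bl5_one.symm⟩
      mul_mem' := by
        rintro a b ⟨a1, K, k1, k2⟩ ⟨b1, L, l1, l2⟩
        exact ⟨by rw [Units.val_mul, det_mul, a1, b1, one_mul], K * L, mul_mem k1 l1, by
          rw [Units.val_mul, k2, l2, bl5_mul, Units.val_mul]⟩
      inv_mem' := by
        rintro a ⟨a1, K, k1, k2⟩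
        refine ⟨?_, K⁻¹, inv_mem k1, Units.inv_eq_of_mul_eq_one_right (by
          rw [k2, bl5_mul, Units.mul_inv, bl5_one])⟩
        have := congrArg det a.mul_inv
        rwa [det_mul, a1, one_mul, det_one] at this }
  have ni : ∀ s : Y, s * s = 1 → s = 1 := fun s e => by
    obtain ⟨s, s1, K, k1, k2⟩ := s
    have e' : s.1 * s.1 = 1 := congrArg (fun x : Y => x.1.1) e
    have c0 := congrFun (congrFun e' 0) 0
    have c1 := congrFun (congrFun e' 0) 1
    have c2 := congrFun (congrFun e' 1) 0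
    have c3 := congrFun (congrFun e' 1) 1
    rw [det_fin_two] at s1
    simp [mul_apply, Fin.sum_univ_two] at c0 c1 c2 c3
    have t0 : s.1 0 0 + s.1 1 1 ≠ 0 := fun z => h.two (by
      linear_combination s.1 0 0 * z - c0 - s1)
    have z1 : s.1 0 1 = 0 := mul_left_cancel₀ t0 (by linear_combination c1)
    have z2 : s.1 1 0 = 0 := mul_left_cancel₀ t0 (by linear_combination c2)
    have z3 : s.1 1 1 = s.1 0 0 := mul_left_cancel₀ t0 (by linear_combination c3 - c0)
    rcases mul_self_eq_one_iff.1 (show s.1 0 0 * s.1 0 0 = 1 by rw [z1] at c0; linear_combination c0)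
      with z | z
    · refine Subtype.ext (Units.ext ?_)
      ext i j; fin_cases i <;> fin_cases j <;> simp [z1, z2, z3, z]
    · refine (n ⟨K, k1, Rp.zero.2 ?_⟩).elim
      rw [k2]
      ext i j; fin_cases i <;> fin_cases j <;> simp [bl5, RZ, z1, z2, z3, z]
  obtain ⟨z, hz⟩ := odd_fix h (X := ((pk).comp Y.subtype).range) (by
    rintro _ ⟨g, rfl⟩ e
    obtain ⟨g', -, ⟨n, hn⟩, e'⟩ := exists_ppart Nat.prime_two ((pk).comp Y.subtype) g (by rw [sq, e])
    rw [← e']
    have : ∀ (n : ℕ) (g : Y), g ^ 2 ^ n = 1 → g = 1 := fun n => by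
      induction n with
      | zero => intro g; simp
      | succ n ih => intro g e; exact ih g (ni _ (by rw [← sq, ← pow_mul, ← pow_succ, e]))
    rw [this n g' hn, map_one])
  rw [trace_fin_two] at tr
  have dt' := dt
  rw [det_fin_two] at dt'
  let a : GL (Fin 2) F := mat 0 (-1) 1 (-1) (by simp)
  let b : GL (Fin 2) F := GeneralLinearGroup.mkOfDetNeZero β (by rw [dt]; exact one_ne_zero)
  have e1 : pk a • z = z := hz _ ⟨⟨a, by simp [a, mat, det_fin_two], X, hX, by
    rw [Rp.zero.1 rX]; ext i j; fin_cases i <;> fin_cases j <;> simp [bl5, xZ, a, mat]⟩, rfl⟩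
  have e2 : pk b • z = z := hz _ ⟨⟨b, dt, hK⟩, rfl⟩
  cases z with
  | infty => simpa [a, mat] using smul_infty_eq_infty.1 e1
  | coe w =>
    rw [smul_coe_eq_coe] at e1 e2
    simp [a, mat] at e1
    change algebraMap F _ (β 0 0) * w + algebraMap F _ (β 0 1) =
      w * (algebraMap F _ (β 1 0) * w + algebraMap F _ (β 1 1)) at e2
    have k1 := congrArg (algebraMap F (AlgebraicClosure F)) tr
    have k2 := congrArg (algebraMap F (AlgebraicClosure F)) dt'
    simp only [map_add, map_sub, map_mul, map_neg, map_one] at k1 k2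
    rw [← sub_eq_zero, ← sub_eq_zero (b := -1), ← mul_eq_zero]
    apply (algebraMap F (AlgebraicClosure F)).injective
    simp only [map_add, map_sub, map_mul, map_neg, map_one, map_zero, map_ofNat]
    generalize algebraMap F (AlgebraicClosure F) (β 0 0) = b0, algebraMap F (AlgebraicClosure F) (β 0 1) = b1,
      algebraMap F (AlgebraicClosure F) (β 1 0) = c, algebraMap F (AlgebraicClosure F) (β 1 1) = b3 at *
    obtain ⟨μ, rfl⟩ : ∃ μ, b3 = μ - c * w := ⟨b3 + c * w, by ring⟩
    obtain rfl : b0 = -1 - μ + c * w := by linear_combination k1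
    obtain rfl : b1 = 2 * w * μ + w - c * w ^ 2 := by linear_combination e2
    have m : μ ^ 2 + μ + 1 = 0 := by linear_combination -k2
    have l : w ^ 2 - w + 1 = 0 := by linear_combination -e1
    rw [show 2 * w * μ + w - c * w ^ 2 - c - (μ - c * w) = 2 * w * μ + w - μ by linear_combination -c * l]
    linear_combination (4 * w ^ 2 - 4 * w + 1) * m - 3 * l

end Cfsg.Agent.L.X11
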