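import Mathlib

/-! Involutions in a group with a central involution and a self-centralising quaternion subgroup. -/

set_option autoImplicit false

namespace Cfsg.Agent.H4.C11

open Subgroup Matrix Polynomial

theorem det_anti {F : Type*} [Field F] {n : Type*} [Fintype n] [DecidableEq n] (hn : Fintype.card n = 6)
    (h2 : (2 : F) ≠ 0) {s z : Matrix n n F} (hs : s * s = 1) (hz : z * z = -1) (h : s * z = -(z * s)) :
    s.det = -1 := by
  let φ : Matrix n n F →+* Matrix n n F[X] := (C : F →+* F[X]).mapMatrix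
  let t : F[X] := C 2⁻¹
  have tt : t * 2 = 1 := by rw [show (2 : F[X]) = C 2 from rfl, ← C_mul, inv_mul_cancel₀ h2, C_1]
  have s2 : φ s * φ s = 1 := by rw [← map_mul, hs, map_one]
  have z2 : φ z * φ z = -1 := by rw [← map_mul, hz, map_neg, map_one]
  have sz : φ s * φ z = -(φ z * φ s) := by rw [← map_mul, h, map_neg, map_mul]
  let A : Matrix n n F[X] := (t * (1 + X)) • 1 + (t * (1 - X)) • φ s
  let B : Matrix n n F[X] := (t * (1 + X)) • 1 - (t * (1 - X)) • φ s
  have e1 : A * φ z = φ z * B := by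
    simp only [A, B, add_mul, mul_sub, smul_mul_assoc, mul_smul_comm, one_mul, mul_one, sz, smul_neg]; abel
  have e2 : A * B = (X : F[X]) • 1 := by
    simp only [A, B, add_mul, mul_sub, smul_mul_assoc, mul_smul_comm, one_mul, mul_one, s2, smul_smul]
    match_scalars
    · linear_combination (X * (t * 2 + 1)) * tt
    · ring
  have dz : (φ z).det ≠ 0 := fun e => by
    have := congrArg det z2
    rw [det_mul, e, det_neg, hn] at this
    norm_num at this
  have e3 : A.det = B.det := by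
    have := congrArg det e1
    rw [det_mul, det_mul, mul_comm] at this
    exact mul_left_cancel₀ dz this
  have e4 : (A.det - X ^ 3) * (A.det + X ^ 3) = 0 := by
    have := congrArg det e2
    rw [det_mul, ← e3, det_smul, hn, det_one] at this
    linear_combination this
  have ev : ∀ x : F, A.det.eval x = ((2⁻¹ * (1 + x)) • (1 : Matrix n n F) + (2⁻¹ * (1 - x)) • s).det := fun x => by
    rw [← coe_evalRingHom, RingHom.map_det]
    congr 1; ext i j
    simp [A, t, φ, one_apply, apply_ite (eval x)]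
  have a1 := ev 1
  have a2 := ev (-1)
  rw [show (2⁻¹ * (1 + 1) : F) = 1 by field_simp; norm_num, sub_self, mul_zero, zero_smul, one_smul, add_zero,
    det_one] at a1
  rw [show (2⁻¹ * (1 - -1) : F) = 1 by field_simp; norm_num, add_neg_cancel, mul_zero, zero_smul, one_smul,
    zero_add] at a2
  rcases mul_eq_zero.1 e4 with e | e
  · rw [← a2, sub_eq_zero.1 e]; simp; norm_num
  · rw [eq_neg_of_add_eq_zero_left e] at a1
    exact (h2 (by simp at a1; linear_combination -a1)).elim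

theorem four {H : Type*} [Group H] [Finite H] {a b s : H} (a2 : a * a = 1) (b2 : b * b = 1) (ab : Commute a b)
    (a1 : a ≠ 1) (A : ∀ h (k : ℕ), h ^ 2 ^ k = 1 → Commute h a → Commute h b → h = 1 ∨ h = a ∨ h = b ∨ h = a * b)
    (s2 : s * s = 1) : ∃ g, (g * s * g⁻¹ = 1 ∨ g * s * g⁻¹ = a ∨ g * s * g⁻¹ = b ∨ g * s * g⁻¹ = a * b) ∨
      ∃ z y, (z = a ∨ z = b ∨ z = a * b) ∧ Commute (g * s * g⁻¹) z ∧
        y * (g * s * g⁻¹) * y⁻¹ = g * s * g⁻¹ * z := by
  have sq : ∀ i j : ℕ, (a ^ i * b ^ j) * (a ^ i * b ^ j) = 1 := fun i j => by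
    rw [← sq, (ab.pow_pow i j).mul_pow, ← pow_mul, ← pow_mul, mul_comm i, mul_comm j, pow_mul, pow_mul, _root_.sq,
      _root_.sq, a2, b2]; simp
  let K : Subgroup H :=
    { carrier := {h | ∃ i j : ℕ, h = a ^ i * b ^ j}
      one_mem' := ⟨0, 0, by simp⟩
      mul_mem' := by
        rintro _ _ ⟨i, j, rfl⟩ ⟨k, l, rfl⟩
        exact ⟨i + k, j + l, by rw [pow_add, pow_add, (ab.symm.pow_pow j k).mul_mul_mul_comm]⟩
      inv_mem' := by rintro _ ⟨i, j, rfl⟩; exact ⟨i, j, inv_eq_of_mul_eq_one_right (sq i j)⟩ }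
  obtain ⟨T, hT⟩ := IsPGroup.exists_le_sylow (p := 2) (P := K) (by
    rintro ⟨_, i, j, rfl⟩; exact ⟨1, Subtype.ext (by simpa [_root_.sq] using sq i j)⟩)
  have aT : a ∈ T := hT ⟨1, 0, by simp⟩
  have bT : b ∈ T := hT ⟨0, 1, by simp⟩
  obtain ⟨T', hT'⟩ := IsPGroup.exists_le_sylow (p := 2) (P := zpowers s) (by
    rintro ⟨_, i, rfl⟩
    exact ⟨1, Subtype.ext (show (s ^ i) ^ 2 ^ 1 = 1 by
      rw [pow_one, _root_.sq, ← (Commute.refl s).mul_zpow, s2, _root_.one_zpow])⟩)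
  obtain ⟨g, rfl⟩ := MulAction.exists_smul_eq H T' T
  refine ⟨g, or_iff_not_imp_left.2 fun ns => ?_⟩
  have sT : g * s * g⁻¹ ∈ g • T' := smul_mem_pointwise_smul s (MulAut.conj g) T'.1 (hT' (mem_zpowers s))
  replace s2 : (g * s * g⁻¹) * (g * s * g⁻¹) = 1 := by rw [conj_mul, s2]; simp
  generalize g * s * g⁻¹ = s at *
  generalize g • T' = T at *
  have pw : ∀ h ∈ T, ∃ k : ℕ, h ^ 2 ^ k = 1 := fun h hh =>
    let ⟨k, e⟩ := T.isPGroup' ⟨h, hh⟩; ⟨k, congrArg Subtype.val e⟩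
  haveI : Nontrivial T := ⟨⟨a, aT⟩, 1, fun e => a1 (congrArg Subtype.val e)⟩
  obtain ⟨⟨⟨z, zT⟩, zc⟩, z1⟩ := (nontrivial_iff_exists_ne (1 : center T)).1 T.isPGroup'.center_nontrivial
  replace zc : ∀ h ∈ T, Commute h z := fun h hh => congrArg Subtype.val (mem_center_iff.1 zc ⟨h, hh⟩)
  replace z1 : z ≠ 1 := fun e => z1 (Subtype.ext (Subtype.ext e))
  have zq := ((pw z zT).elim fun k e => A z k e (zc a aT).symm (zc b bT).symm).resolve_left z1
  have two : ∀ h v w, (v = a ∨ v = b ∨ v = a * b) → (w = a ∨ w = b ∨ w = a * b) → v ≠ w → Commute h v →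
      Commute h w → Commute h a ∧ Commute h b := by
    have k1 : ∀ h, Commute h a → Commute h (a * b) → Commute h b := fun h p q => by
      simpa [← mul_assoc, a2] using p.mul_right q
    have k2 : ∀ h, Commute h b → Commute h (a * b) → Commute h a := fun h p q => by
      simpa [mul_assoc, b2] using q.mul_right p
    rintro h v w (rfl | rfl | rfl) (rfl | rfl | rfl) e p q <;> first | exact absurd rfl e | skip
    exacts [⟨p, q⟩, ⟨p, k1 h p q⟩, ⟨q, p⟩, ⟨k2 h p q, p⟩, ⟨q, k1 h q p⟩, ⟨k2 h q p, q⟩]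
  have nc : ¬ (Commute s a ∧ Commute s b) := fun e => ns (A s 1 (by rw [pow_one, _root_.sq, s2]) e.1 e.2)
  obtain ⟨c, cq, cT, c2, sc⟩ : ∃ c, (c = a ∨ c = b ∨ c = a * b) ∧ c ∈ T ∧ c * c = 1 ∧ ¬ Commute s c := by
    rcases not_and_or.1 nc with e | e
    exacts [⟨a, Or.inl rfl, aT, a2, e⟩, ⟨b, Or.inr (Or.inl rfl), bT, b2, e⟩]
  have si := inv_eq_of_mul_eq_one_right s2
  have ci := inv_eq_of_mul_eq_one_right c2
  classical
  have ex := pw _ (T.mul_mem sT cT)
  have k1 := Nat.find_spec ex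
  have k2 := fun m => Nat.find_min ex (m := m)
  obtain ⟨m, hm⟩ : ∃ m, Nat.find ex = m + 2 := by
    refine ⟨Nat.find ex - 2, (Nat.sub_add_cancel (not_lt.1 fun l => sc ?_)).symm⟩
    have : (s * c) ^ 2 ^ 1 = 1 := by
      obtain ⟨d, e⟩ := pow_dvd_pow 2 (show Nat.find ex ≤ 1 by omega)
      rw [e, pow_mul, k1, one_pow]
    rw [pow_one, _root_.sq] at this
    rw [Commute, SemiconjBy, ← inv_eq_of_mul_eq_one_right this, _root_.mul_inv_rev, si, ci]
  rw [hm] at k1 k2
  have i1 : ∀ n : ℕ, (s * c) ^ n * s = s * ((s * c) ^ n)⁻¹ := fun n => by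
    rw [← inv_pow]
    exact (SemiconjBy.pow_right (show SemiconjBy s (s * c)⁻¹ (s * c) by
      rw [SemiconjBy, _root_.mul_inv_rev, si, ci, mul_assoc]) n).eq.symm
  have i2 : ∀ n : ℕ, (s * c) ^ n * c = c * ((s * c) ^ n)⁻¹ := fun n => by
    rw [← inv_pow]
    exact (SemiconjBy.pow_right (show SemiconjBy c (s * c)⁻¹ (s * c) by
      rw [SemiconjBy, _root_.mul_inv_rev, si, ci, ← mul_assoc, mul_assoc s, c2]; simp) n).eq.symm
  have vi : ((s * c) ^ 2 ^ (m + 1))⁻¹ = (s * c) ^ 2 ^ (m + 1) :=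
    inv_eq_of_mul_eq_one_right (by rw [← pow_add, ← two_mul, ← pow_succ', k1])
  have vT := T.pow_mem (T.mul_mem sT cT) (2 ^ (m + 1))
  have v1 : Commute ((s * c) ^ 2 ^ (m + 1)) s := by rw [Commute, SemiconjBy, i1, vi]
  have v2 : Commute ((s * c) ^ 2 ^ (m + 1)) c := by rw [Commute, SemiconjBy, i2, vi]
  have v3 := two _ c z cq zq (by rintro rfl; exact sc (zc s sT)) v2 (zc _ vT)
  have v4 := ((pw _ vT).elim fun k e => A _ k e v3.1 v3.2).resolve_left (k2 (m + 1) (by omega))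
  have v5 : (s * c) ^ 2 ^ (m + 1) = z := by_contra fun e => nc (two s _ z v4 zq e v1.symm (zc s sT))
  refine ⟨z, (s * c) ^ 2 ^ m, zq, zc s sT, ?_⟩
  rw [i1, mul_assoc, ← _root_.mul_inv_rev, ← pow_add, ← two_mul, ← pow_succ', vi, v5]

theorem anti {G : Type*} [Group G] [Finite G] {σ z1 z2 s : G} (cen : ∀ g, g * σ = σ * g) (σ2 : σ * σ = 1)
    (σ1 : σ ≠ 1) (e1 : z1 * z1 = σ) (e2 : z2 * z2 = σ) (e12 : z1 * z2 = σ * z2 * z1)
    (X : ∀ g, g * z1 = z1 * g → g * z2 = z2 * g → g * g = 1 ∨ g * g = σ → g = 1 ∨ g = σ)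
    (s2 : s * s = 1) (s1 : s ≠ 1) (sσ : s ≠ σ) : ∃ z, z * z = σ ∧ s * z = σ * (z * s) := by
  let Z : Subgroup G :=
    { carrier := {g | g = 1 ∨ g = σ}
      one_mem' := Or.inl rfl
      mul_mem' := by rintro _ _ (rfl | rfl) (rfl | rfl) <;> simp [σ2]
      inv_mem' := by rintro _ (rfl | rfl) <;> simp [inv_eq_of_mul_eq_one_right σ2] }
  haveI : Z.Normal := ⟨by rintro _ (rfl | rfl) g <;> simp [Z, cen g]⟩
  let π := QuotientGroup.mk' Z
  have eq : ∀ {x y}, π x = π y → x = y ∨ x = σ * y := fun {x y} e => by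
    have : x * y⁻¹ ∈ Z := (QuotientGroup.eq_one_iff _).1 (show π _ = 1 by rw [map_mul, map_inv, e, mul_inv_cancel])
    exact this.imp mul_inv_eq_one.1 mul_inv_eq_iff_eq_mul.1
  have πσ : π σ = 1 := (QuotientGroup.eq_one_iff _).2 (Or.inr rfl)
  have cc : ∀ g x, g * (σ * x) = σ * (g * x) := fun g x => by rw [← mul_assoc, cen, mul_assoc]
  have σσ : ∀ x, σ * (σ * x) = x := fun x => by rw [← mul_assoc, σ2, one_mul]
  have e21 : z2 * z1 = σ * (z1 * z2) := by rw [e12, mul_assoc, σσ]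
  have e21' : ∀ x, z2 * (z1 * x) = σ * (z1 * (z2 * x)) := fun x => by rw [← mul_assoc, e21]; simp [mul_assoc]
  have e1' : ∀ x, z1 * (z1 * x) = σ * x := fun x => by rw [← mul_assoc, e1]
  have e2' : ∀ x, z2 * (z2 * x) = σ * x := fun x => by rw [← mul_assoc, e2]
  have e3 : z1 * z2 * (z1 * z2) = σ := by simp only [mul_assoc, e21', cc z1, e1', e2, σσ]
  have X' : ∀ (k : ℕ) g, g * z1 = z1 * g → g * z2 = z2 * g → π (g ^ 2 ^ k) = 1 → π g = 1 := fun k => by
    induction k with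
    | zero => exact fun g _ _ e => by simpa using e
    | succ k ih =>
      refine fun g p q e => (QuotientGroup.eq_one_iff _).2 (X g p q ((QuotientGroup.eq_one_iff _).1
        (ih (g * g) ?_ ?_ (by rwa [← _root_.sq, ← pow_mul, ← pow_succ'])))) <;>
      simp only [mul_assoc, p, q] <;> simp only [← mul_assoc, p, q]
  have a2 : π z1 * π z1 = 1 := by rw [← map_mul, e1, πσ]
  have b2 : π z2 * π z2 = 1 := by rw [← map_mul, e2, πσ]
  have ab : Commute (π z1) (π z2) := by rw [Commute, SemiconjBy, ← map_mul, e12]; simp [πσ]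
  have nz : ∀ {x z}, x * x = 1 → z * z = σ → π x ≠ π z := fun {x z} p q e => by
    rcases eq e with rfl | rfl
    · exact σ1 (q.symm.trans p)
    · exact σ1 (by rw [← p, mul_assoc, cc z, σσ, q])
  obtain ⟨g, hg⟩ := four (s := π s) a2 b2 ab (fun e => nz (mul_one 1) e1 (by rw [e, map_one])) (fun h k e p q => by
    obtain ⟨h, rfl⟩ := QuotientGroup.mk'_surjective Z h
    have key : ∀ t, Commute (π h) (π t) → π t * π t = 1 → h * t * z1 = z1 * (h * t) → h * t * z2 = z2 * (h * t) →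
        π h = π t := fun t c t2 p q => by
      have := X' (k + 1) _ p q (by
        rw [map_pow, map_mul, c.mul_pow, pow_succ, pow_mul, e, mul_comm _ 2, pow_mul, _root_.sq (π t), t2]; simp)
      rw [map_mul, mul_eq_one_iff_eq_inv] at this
      rw [this, inv_eq_of_mul_eq_one_right t2]
    have p' : z1 * h = h * z1 ∨ z1 * h = σ * (h * z1) := eq (by simp only [map_mul]; exact p.eq.symm)
    have q' : z2 * h = h * z2 ∨ z2 * h = σ * (h * z2) := eq (by simp only [map_mul]; exact q.eq.symm)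
    rcases p' with p' | p' <;> rcases q' with q' | q'
    · exact Or.inl (key 1 (by simp) (by simp) (by simp [p']) (by simp [q']))
    · exact Or.inr (Or.inl (key z1 p a2 (by rw [← mul_assoc, p']) (by
        rw [← mul_assoc, q']; simp only [mul_assoc, e21, cc h, σσ])))
    · exact Or.inr (Or.inr (Or.inl (key z2 q b2 (by
        rw [← mul_assoc, p']; simp only [mul_assoc, e21, cc h]) (by rw [← mul_assoc, q']))))
    · refine Or.inr (Or.inr (Or.inr ((key (z1 * z2) (by rw [map_mul]; exact p.mul_right q)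
        (by rw [← map_mul, e3, πσ]) ?_ ?_).trans (map_mul _ _ _))))
      · rw [← mul_assoc z1, p']; simp only [mul_assoc, e21, cc h, cc z1]
      · rw [← mul_assoc z2, q']; simp only [mul_assoc, e21', cc h, σσ])
    (by rw [← map_mul, s2, map_one])
  obtain ⟨g, rfl⟩ := QuotientGroup.mk'_surjective Z g
  have t2 : (g * s * g⁻¹) * (g * s * g⁻¹) = 1 := by rw [conj_mul, s2]; simp
  rw [show QuotientGroup.mk' Z g * π s * (QuotientGroup.mk' Z g)⁻¹ = π (g * s * g⁻¹) by simp [π]] at hg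
  rcases hg with (e | e | e | e) | ⟨z, y, zq, c, e⟩
  · rcases eq (e.trans (map_one π).symm) with e | e
    · exact absurd (by simpa using e) s1
    · rw [mul_one, mul_inv_eq_iff_eq_mul, ← cen] at e
      exact absurd (mul_left_cancel e) sσ
  · exact absurd e (nz t2 e1)
  · exact absurd e (nz t2 e2)
  · exact absurd (e.trans (map_mul _ _ _).symm) (nz t2 e3)
  obtain ⟨z, rfl, z2⟩ : ∃ w, π w = z ∧ w * w = σ := by
    rcases zq with rfl | rfl | rfl
    exacts [⟨_, rfl, e1⟩, ⟨_, rfl, e2⟩, ⟨_, map_mul _ _ _, e3⟩]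
  obtain ⟨y, rfl⟩ := QuotientGroup.mk'_surjective Z y
  rcases eq (x := g * s * g⁻¹ * z) (y := z * (g * s * g⁻¹)) (by simp only [map_mul π _ z, map_mul π z]; exact c.eq)
    with k | k
  · refine absurd (show π (y * (g * s * g⁻¹) * y⁻¹) = π (g * s * g⁻¹ * z) by
      simpa only [map_mul π _ z, map_mul π _ y⁻¹, map_mul π y, map_inv] using e) (nz (by rw [conj_mul, t2]; simp) ?_)
    rw [mul_assoc, ← mul_assoc z, ← k, ← mul_assoc, ← mul_assoc, t2, one_mul, z2]
  · refine ⟨g⁻¹ * z * g, by rw [show g⁻¹ * z * g * (g⁻¹ * z * g) = g⁻¹ * (z * z) * g by group, z2, cen]; simp, ?_⟩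
    rw [show s * (g⁻¹ * z * g) = g⁻¹ * (g * s * g⁻¹ * z) * g by group, k, cc]; group

theorem invol {C : Type*} [Group C] [Finite C] {F : Type*} [Field F] {n : Type*} [Fintype n] [DecidableEq n]
    (hn : Fintype.card n = 6) (h2 : (2 : F) ≠ 0) (rv : C →* GL n F) {σ z1 z2 s : C} (cen : ∀ g, g * σ = σ * g)
    (hσ : (rv σ).1 = -1) (σ2 : σ * σ = 1) (e1 : z1 * z1 = σ) (e2 : z2 * z2 = σ) (e12 : z1 * z2 = σ * z2 * z1)
    (X : ∀ g, g * z1 = z1 * g → g * z2 = z2 * g → g * g = 1 ∨ g * g = σ → g = 1 ∨ g = σ)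
    (s2 : s * s = 1) (s1 : s ≠ 1) (sσ : s ≠ σ) : (rv s).1.det = -1 := by
  obtain ⟨i⟩ : Nonempty n := Fintype.card_pos_iff.1 (by omega)
  obtain ⟨z, p, q⟩ := anti cen σ2 (fun e => by
    rw [e, map_one] at hσ
    have := congrFun (congrFun hσ i) i
    simp at this
    exact h2 (by linear_combination this)) e1 e2 e12 X s2 s1 sσ
  refine det_anti hn h2 (z := (rv z).1) ?_ ?_ ?_
  · rw [← Units.val_mul, ← map_mul, s2, map_one, Units.val_one]
  · rw [← Units.val_mul, ← map_mul, p, hσ]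
  · rw [← Units.val_mul, ← map_mul, q, map_mul, Units.val_mul, hσ, map_mul, Units.val_mul, neg_one_mul]

end Cfsg.Agent.H4.C11
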